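import Mathlib
import Cfsg.Agent.Lib.Helper58.QSim.Defs
import Cfsg.Agent.Lib.Helper40.Semisimple

/-!
# QSim (S5981): tools

* `orth_basis`: (T1) an orthogonal basis of a non-degenerate quadratic form in odd characteristic,
  in matrix form, indexed by any type equivalent to `Fin n`;
* `charpoly_sq_nonsquare`, `charpoly_sq_square`: the characteristic polynomial of a matrix with
  `M * M = z • 1`;
* `conj_of_model`: (T2) a semisimple similarity with the same characteristic polynomial as `x`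
  gives `Conj Q x`.
-/

set_option autoImplicit false
open scoped Matrix Polynomial MatrixGroups

namespace Cfsg.Agent.Lib.Helper11.QSim

open Cfsg.Agent.Lib.Helper58.QSim Matrix Polynomial

universe u

variable {F : Type u} [Field F]

theorem polar_self_eq_two {n : ℕ} {Q : (Fin n → F) → F}
    (hQ : Cfsg.Geo.IsNondegenerateQuadraticForm Q) (w : Fin n → F) :
    QuadraticMap.polar Q w w = 2 * Q w := by
  unfold QuadraticMap.polar
  rw [← two_smul F w, hQ.smul]
  ring

/-- (T1) orthogonal basis, in matrix form. -/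
theorem orth_basis {n : ℕ} (h2 : (2 : F) ≠ 0) (Q : (Fin n → F) → F)
    (hQ : Cfsg.Geo.IsNondegenerateQuadraticForm Q) {κ : Type} [Fintype κ] [DecidableEq κ]
    (e : κ ≃ Fin n) :
    ∃ (P : Matrix (Fin n) κ F) (P' : Matrix κ (Fin n) F) (a : κ → F),
      P * P' = 1 ∧ P' * P = 1 ∧ (∀ j, a j ≠ 0) ∧
      ∀ c : κ → F, Q (P *ᵥ c) = ∑ j, a j * c j ^ 2 := by
  classical
  letI : Invertible (2 : F) := invertibleOfNonzero h2
  obtain ⟨B, hB⟩ : ∃ B : LinearMap.BilinForm F (Fin n → F),
      ∀ u v, B u v = QuadraticMap.polar Q u v :=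
    ⟨LinearMap.mk₂ F (QuadraticMap.polar Q) hQ.polar_bilinear.add_left
      hQ.polar_bilinear.smul_left hQ.polar_bilinear.add_right hQ.polar_bilinear.smul_right,
      fun u v => rfl⟩
  have hsymm : LinearMap.IsSymm B := by
    rw [LinearMap.isSymm_def]
    intro u v
    simp only [RingHom.id_apply]
    rw [hB, hB]
    exact QuadraticMap.polar_comm _ _ _
  obtain ⟨v0, hv0⟩ := LinearMap.BilinForm.exists_orthogonal_basis hsymm
  have hfr : Module.finrank F (Fin n → F) = n := Module.finrank_fin_fun F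
  obtain ⟨b, hb⟩ : ∃ b : Module.Basis κ F (Fin n → F), ∀ i j, i ≠ j → B (b i) (b j) = 0 := by
    refine ⟨v0.reindex ((finCongr hfr).trans e.symm), ?_⟩
    intro i j hij
    rw [Module.Basis.reindex_apply, Module.Basis.reindex_apply]
    apply LinearMap.isOrthoᵢ_def.mp hv0
    intro h
    exact hij ((Equiv.injective _) h)
  refine ⟨(Pi.basisFun F (Fin n)).toMatrix b, b.toMatrix (Pi.basisFun F (Fin n)),
    fun j => Q (b j), Module.Basis.toMatrix_mul_toMatrix_flip _ _,
    Module.Basis.toMatrix_mul_toMatrix_flip _ _, ?_, ?_⟩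
  · intro j h0
    change Q (b j) = 0 at h0
    have hz : B (b j) = 0 := by
      apply b.ext
      intro l
      by_cases hjl : j = l
      · subst hjl
        rw [hB, polar_self_eq_two hQ, h0, mul_zero, LinearMap.zero_apply]
      · rw [hb j l hjl, LinearMap.zero_apply]
    obtain ⟨x, hx⟩ := (hQ.nondegenerate (b j) (b.ne_zero j)).2
    apply hx
    rw [← hB, hz, LinearMap.zero_apply]
  · intro c
    have hPc : ((Pi.basisFun F (Fin n)).toMatrix b) *ᵥ c = ∑ j, c j • b j := by
      funext i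
      simp only [Matrix.mulVec, dotProduct, Module.Basis.toMatrix_apply, Pi.basisFun_repr,
        Finset.sum_apply, Pi.smul_apply, smul_eq_mul]
      apply Finset.sum_congr rfl
      intro j _
      ring
    rw [hPc]
    have hr : ∀ w : Fin n → F, B w (∑ j, c j • b j) = ∑ j, c j * B w (b j) := by
      intro w
      rw [map_sum]
      apply Finset.sum_congr rfl
      intro j _
      rw [map_smul, smul_eq_mul]
    have hl : ∀ l, B (∑ j, c j • b j) (b l) = c l * (2 * Q (b l)) := by
      intro l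
      rw [map_sum, LinearMap.sum_apply, Finset.sum_eq_single l]
      · rw [map_smul, LinearMap.smul_apply, hB, polar_self_eq_two hQ, smul_eq_mul]
      · intro j _ hjl
        rw [map_smul, LinearMap.smul_apply, hb j l hjl, smul_zero]
      · intro h
        exact absurd (Finset.mem_univ l) h
    have h3 : B (∑ j, c j • b j) (∑ j, c j • b j) = 2 * ∑ j, Q (b j) * c j ^ 2 := by
      rw [hr, Finset.mul_sum]
      apply Finset.sum_congr rfl
      intro j _
      rw [hl]
      ring
    rw [hB, polar_self_eq_two hQ] at h3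
    exact mul_left_cancel₀ h2 h3

theorem charpoly_neg_mul {n : ℕ} (M : Matrix (Fin n) (Fin n) F) (z : F) (hM : M * M = z • 1) :
    (-M).charpoly * M.charpoly = ((X : F[X]) ^ 2 - C z) ^ n := by
  have hprod : (-M).charmatrix * M.charmatrix =
      Matrix.scalar (Fin n) ((X : F[X]) ^ 2 - C z) := by
    have e1 : (-M).charmatrix =
        Matrix.scalar (Fin n) (X : F[X]) + (C : F →+* F[X]).mapMatrix M := by
      unfold Matrix.charmatrix
      rw [map_neg, sub_neg_eq_add]
    have e2 : M.charmatrix =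
        Matrix.scalar (Fin n) (X : F[X]) - (C : F →+* F[X]).mapMatrix M := rfl
    have hc : Commute (Matrix.scalar (Fin n) (X : F[X]))
        ((C : F →+* F[X]).mapMatrix M) :=
      Matrix.scalar_commute _ (fun r => Commute.all _ _) _
    have e3 : (C : F →+* F[X]).mapMatrix (z • (1 : Matrix (Fin n) (Fin n) F)) =
        Matrix.scalar (Fin n) (C z) := by
      ext i j
      by_cases hij : i = j
      · subst hij
        simp
      · simp [hij, Matrix.one_apply_ne hij]
    rw [e1, e2, ← hc.mul_self_sub_mul_self_eq, ← map_mul, ← map_mul, hM, e3, pow_two, map_sub]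
  have h1 : (-M).charpoly * M.charpoly = ((-M).charmatrix * M.charmatrix).det := by
    rw [Matrix.det_mul]
    rfl
  rw [h1, hprod, Matrix.scalar_apply, Matrix.det_diagonal, Finset.prod_const, Finset.card_univ,
    Fintype.card_fin]

/-- The characteristic polynomial of `M` with `M² = z`, `z` a non-square. -/
theorem charpoly_sq_nonsquare {n : ℕ} (M : Matrix (Fin n) (Fin n) F) (z : F)
    (hM : M * M = z • 1) (hz : ∀ l : F, l * l ≠ z) :
    ∃ m : ℕ, n = 2 * m ∧ M.charpoly = ((X : F[X]) ^ 2 - C z) ^ m := by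
  have hmonic : ((X : F[X]) ^ 2 - C z).Monic := monic_X_pow_sub_C z two_ne_zero
  have hdeg : ((X : F[X]) ^ 2 - C z).natDegree = 2 := natDegree_X_pow_sub_C
  have hirr : Irreducible ((X : F[X]) ^ 2 - C z) := by
    apply Polynomial.irreducible_of_degree_le_three_of_not_isRoot
    · rw [hdeg]
      decide
    · intro l hl
      rw [IsRoot, eval_sub, eval_pow, eval_X, eval_C, sub_eq_zero, pow_two] at hl
      exact hz l hl
  have hdvd : M.charpoly ∣ ((X : F[X]) ^ 2 - C z) ^ n :=
    ⟨(-M).charpoly, by rw [← charpoly_neg_mul M z hM, mul_comm]⟩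
  obtain ⟨m, _, hm⟩ := (dvd_prime_pow hirr.prime n).mp hdvd
  have heq : M.charpoly = ((X : F[X]) ^ 2 - C z) ^ m :=
    Polynomial.eq_of_monic_of_associated (Matrix.charpoly_monic M) (hmonic.pow m) hm
  refine ⟨m, ?_, heq⟩
  have h3 := congrArg Polynomial.natDegree heq
  rw [Matrix.charpoly_natDegree_eq_dim, Fintype.card_fin, natDegree_pow, hdeg] at h3
  omega

/-- The characteristic polynomial of `M` with `M² = l²`. -/
theorem charpoly_sq_square (h2 : (2 : F) ≠ 0) {n : ℕ} (M : Matrix (Fin n) (Fin n) F) (l : F)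
    (hM : M * M = (l * l) • 1) :
    ∃ k : ℕ, k ≤ n ∧ M.charpoly = (X - C l) ^ k * (X - C (-l)) ^ (n - k) := by
  classical
  have hdet := charpoly_neg_mul M (l * l) hM
  have hfac : ((X : F[X]) ^ 2 - C (l * l)) = (X - C l) * (X - C (-l)) := by
    rw [C_mul, C_neg]
    ring
  have hg0 : ((X : F[X]) ^ 2 - C (l * l)) ^ n ≠ 0 :=
    pow_ne_zero _ (monic_X_pow_sub_C (l * l) two_ne_zero).ne_zero
  have hgs : (((X : F[X]) ^ 2 - C (l * l)) ^ n).Splits := by
    rw [hfac]
    exact ((Splits.X_sub_C l).mul (Splits.X_sub_C (-l))).pow _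
  have hm : M.charpoly.Monic := Matrix.charpoly_monic M
  have hs : M.charpoly.Splits := hgs.of_dvd hg0 ⟨(-M).charpoly, by rw [← hdet, mul_comm]⟩
  have hroot : ∀ a ∈ M.charpoly.roots, a = l ∨ a = -l := by
    intro a ha
    have h1 : M.charpoly.eval a = 0 := (mem_roots hm.ne_zero).mp ha
    have h3 := congrArg (Polynomial.eval a) hdet
    rw [eval_mul, h1, mul_zero, eval_pow, eval_sub, eval_pow, eval_X, eval_C] at h3
    have h4 : a ^ 2 - l * l = 0 := eq_zero_of_pow_eq_zero h3.symm
    have h5 : (a - l) * (a + l) = 0 := by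
      rw [← h4]
      ring
    rcases mul_eq_zero.mp h5 with h | h
    · left
      exact sub_eq_zero.mp h
    · right
      exact eq_neg_of_add_eq_zero_left h
  obtain ⟨m₁, hm₁⟩ : ∃ m₁, m₁ = M.charpoly.roots.filter (· = l) := ⟨_, rfl⟩
  obtain ⟨m₂, hm₂⟩ : ∃ m₂, m₂ = M.charpoly.roots.filter (fun a => ¬ a = l) := ⟨_, rfl⟩
  have hsum : m₁ + m₂ = M.charpoly.roots := by
    rw [hm₁, hm₂]
    exact Multiset.filter_add_not _ _
  have h1 : m₁ = Multiset.replicate (Multiset.card m₁) l := by
    rw [Multiset.eq_replicate_card]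
    intro b hb
    rw [hm₁] at hb
    exact (Multiset.mem_filter.mp hb).2
  have h1' : m₂ = Multiset.replicate (Multiset.card m₂) (-l) := by
    rw [Multiset.eq_replicate_card]
    intro b hb
    rw [hm₂] at hb
    obtain ⟨hb1, hb2⟩ := Multiset.mem_filter.mp hb
    rcases hroot b hb1 with h | h
    · exact absurd h hb2
    · exact h
  obtain ⟨c₁, hc₁⟩ : ∃ c₁, c₁ = Multiset.card m₁ := ⟨_, rfl⟩
  obtain ⟨c₂, hc₂⟩ : ∃ c₂, c₂ = Multiset.card m₂ := ⟨_, rfl⟩
  rw [← hc₁] at h1
  rw [← hc₂] at h1'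
  have hχ : M.charpoly = (X - C l) ^ c₁ * (X - C (-l)) ^ c₂ := by
    conv_lhs => rw [hs.eq_prod_roots_of_monic hm, ← hsum, h1, h1']
    rw [Multiset.map_add, Multiset.prod_add, Multiset.map_replicate, Multiset.prod_replicate,
      Multiset.map_replicate, Multiset.prod_replicate]
  have hcard : c₁ + c₂ = n := by
    have h3 := hs.natDegree_eq_card_roots
    rw [Matrix.charpoly_natDegree_eq_dim, Fintype.card_fin, ← hsum,
      Multiset.card_add, ← hc₁, ← hc₂] at h3
    exact h3.symm
  refine ⟨c₁, by omega, ?_⟩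
  rw [hχ]
  congr 2
  omega

/-- (T2) a similarity `y` with multiplier `z`, `y² = z`, and the characteristic polynomial of `x`
(`x² = z`, `det x = 1`) gives `Conj Q x`. -/
theorem conj_of_model [Finite F] (h2 : (2 : F) ≠ 0) {n : ℕ} (Q : (Fin n → F) → F)
    (x : GL (Fin n) F) (hx : x ∈ Cfsg.Geo.specialLinear (Fin n) F) (z : F) (hz : z ≠ 0)
    (hxz : (x : Matrix (Fin n) (Fin n) F) * (x : Matrix (Fin n) (Fin n) F) = z • 1)
    (y : Matrix (Fin n) (Fin n) F) (hyz : y * y = z • 1) (hQy : ∀ v, Q (y *ᵥ v) = z * Q v)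
    (hc : y.charpoly = (x : Matrix (Fin n) (Fin n) F).charpoly) : Conj Q x := by
  classical
  have hdx : (x : Matrix (Fin n) (Fin n) F).det = 1 := by
    have h := congrArg Units.val (MonoidHom.mem_ker.mp hx)
    rw [Matrix.GeneralLinearGroup.val_det_apply] at h
    exact h
  have hdy : y.det = 1 := by
    rw [Matrix.det_eq_sign_charpoly_coeff, hc, ← Matrix.det_eq_sign_charpoly_coeff, hdx]
  have hss : ∀ M : Matrix (Fin n) (Fin n) F, M * M = z • 1 →
      Module.End.IsSemisimple (Matrix.toLin' M) := by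
    intro M hM
    have hsq : Squarefree ((X : F[X]) ^ 2 - C z) :=
      (separable_X_pow_sub_C z (by exact_mod_cast h2) hz).squarefree
    apply Module.End.isSemisimple_of_squarefree_aeval_eq_zero hsq
    have h1 : (Matrix.toLin' M) ^ 2 = z • 1 := by
      change Matrix.toLinAlgEquiv' M ^ 2 = z • 1
      rw [← map_pow, pow_two, hM, map_smul, map_one]
    rw [map_sub, map_pow, aeval_X, aeval_C, h1, Algebra.algebraMap_eq_smul_one, sub_self]
  obtain ⟨G, hG⟩ : ∃ G : Matrix.SpecialLinearGroup (Fin n) F,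
      (G : Matrix (Fin n) (Fin n) F) = (x : Matrix (Fin n) (Fin n) F) := ⟨⟨_, hdx⟩, rfl⟩
  obtain ⟨H, hH⟩ : ∃ H : Matrix.SpecialLinearGroup (Fin n) F,
      (H : Matrix (Fin n) (Fin n) F) = y := ⟨⟨_, hdy⟩, rfl⟩
  have hconj := Cfsg.Agent.Lib.Helper40.isConj_SL_of_semisimple G H
    (by rw [hG]; exact hss _ hxz) (by rw [hH]; exact hss _ hyz) (by rw [hG, hH, hc])
  obtain ⟨c, hcc⟩ := isConj_iff.mp hconj
  have hval : ((Matrix.SpecialLinearGroup.toGL c * x * (Matrix.SpecialLinearGroup.toGL c)⁻¹ :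
      GL (Fin n) F) : Matrix (Fin n) (Fin n) F) = y := by
    have h5 := congrArg Subtype.val hcc
    rw [← map_inv, Units.val_mul, Units.val_mul, Matrix.SpecialLinearGroup.coe_GL_coe_matrix,
      Matrix.SpecialLinearGroup.coe_GL_coe_matrix, ← hH, ← h5, ← hG]
    rfl
  refine ⟨(Matrix.SpecialLinearGroup.toGL c)⁻¹, ?_, ?_⟩
  · apply Subgroup.inv_mem
    show Matrix.GeneralLinearGroup.det (Matrix.SpecialLinearGroup.toGL c) = 1
    apply Units.ext
    rw [Matrix.GeneralLinearGroup.val_det_apply, Matrix.SpecialLinearGroup.coe_GL_coe_matrix]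
    exact c.2
  · rw [inv_inv]
    refine ⟨Units.mk0 z hz, fun v => ?_⟩
    rw [hval, Units.val_mk0]
    exact hQy v

end Cfsg.Agent.Lib.Helper11.QSim
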