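import Mathlib
import Cfsg.Agent.Lib.Helper58.QSim.Defs
import Cfsg.Agent.Lib.Helper11.QSim.Tools

/-!
# QSim (S5981): [INV] every involution of `PSL_n(q)`, `q` odd, is conjugate into the similarity
group of a non-degenerate quadratic form
-/

set_option autoImplicit false
open scoped Matrix Polynomial MatrixGroups

namespace Cfsg.Agent.Lib.Helper11.QSim

open Cfsg.Agent.Lib.Helper58.QSim Matrix Polynomial

universe u

theorem two_ne_zero_of_odd {F : Type u} [Field F] [Fintype F]
    (hF : Odd (Fintype.card F)) : (2 : F) ≠ 0 := by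
  intro h2
  have hc : ringChar F = 2 := CharP.ringChar_of_prime_eq_zero Nat.prime_two h2
  have := (FiniteField.even_card_iff_char_two (F := F)).mp hc
  rcases hF with ⟨k, hk⟩
  omega

theorem prod_ite_lt {R : Type*} [CommMonoid R] (a b : R) : ∀ (d t : ℕ), t ≤ d →
    ∏ i ∈ Finset.range d, (if i < t then a else b) = a ^ t * b ^ (d - t)
  | 0, t, h => by
    have : t = 0 := by omega
    subst this
    simp
  | d + 1, t, h => by
    rw [Finset.prod_range_succ]
    by_cases ht : t ≤ d
    · rw [prod_ite_lt a b d t ht, if_neg (by omega), show d + 1 - t = (d - t) + 1 by omega,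
        pow_succ, mul_assoc]
    · have : t = d + 1 := by omega
      subst this
      rw [Finset.prod_congr rfl (fun i hi => if_pos (by have := Finset.mem_range.mp hi; omega)),
        Finset.prod_const, Finset.card_range, if_pos (by omega), Nat.sub_self, pow_zero, mul_one,
        pow_succ]

/-- A non-degenerate binary form over a finite field of odd order is universal. -/
theorem exists_sq_add {F : Type u} [Field F] [Fintype F] (hF : Odd (Fintype.card F))
    (δ z : F) (hδ : δ ≠ 0) : ∃ s t : F, s ^ 2 + δ * t ^ 2 = z := by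
  have hodd : Fintype.card F % 2 = 1 := Nat.odd_iff.mp hF
  have hg : (C δ * (X : F[X]) ^ 2 - C z).degree = 2 := by
    rw [degree_sub_C, degree_C_mul_X_pow 2 hδ]
    · rfl
    · rw [degree_C_mul_X_pow 2 hδ]
      decide
  obtain ⟨a, b, hab⟩ := FiniteField.exists_root_sum_quadratic
    (f := (X : F[X]) ^ 2) (g := C δ * X ^ 2 - C z) (degree_X_pow 2) hg hodd
  refine ⟨a, b, ?_⟩
  simp only [eval_pow, eval_X, eval_sub, eval_C, eval_mul] at hab
  linear_combination hab

variable {F : Type u} [Field F]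

/-- The model `P * D * P'` in an orthogonal basis. -/
theorem model_props {n : ℕ} {κ : Type} [Fintype κ] [DecidableEq κ] (Q : (Fin n → F) → F)
    (P : Matrix (Fin n) κ F) (P' : Matrix κ (Fin n) F) (a : κ → F)
    (hPP' : P * P' = 1) (hP'P : P' * P = 1)
    (hQP : ∀ c : κ → F, Q (P *ᵥ c) = ∑ j, a j * c j ^ 2)
    (D : Matrix κ κ F) (z : F) (hDD : D * D = z • 1)
    (hD : ∀ c : κ → F, ∑ j, a j * (D *ᵥ c) j ^ 2 = z * ∑ j, a j * c j ^ 2) :
    (P * D * P') * (P * D * P') = z • 1 ∧ ∀ v, Q ((P * D * P') *ᵥ v) = z * Q v := by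
  constructor
  · calc P * D * P' * (P * D * P') = P * (D * (P' * P) * D) * P' := by
          simp only [Matrix.mul_assoc]
      _ = P * (D * D) * P' := by rw [hP'P, Matrix.mul_one]
      _ = z • 1 := by
          rw [hDD, Matrix.mul_smul, Matrix.smul_mul, Matrix.mul_one, hPP']
  · intro v
    have h1 : (P * D * P') *ᵥ v = P *ᵥ (D *ᵥ (P' *ᵥ v)) := by
      rw [Matrix.mulVec_mulVec, Matrix.mulVec_mulVec, Matrix.mul_assoc]
    have h2 : P *ᵥ (P' *ᵥ v) = v := by
      rw [Matrix.mulVec_mulVec, hPP', Matrix.one_mulVec]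
    rw [h1, hQP, hD, ← hQP, h2]

/-- [INV], square case. -/
theorem inv_square [Finite F] (h2 : (2 : F) ≠ 0) {n : ℕ} (Q : (Fin n → F) → F)
    (hQ : Cfsg.Geo.IsNondegenerateQuadraticForm Q) (x : GL (Fin n) F)
    (hx : x ∈ Cfsg.Geo.specialLinear (Fin n) F) (l : F) (hl : l ≠ 0)
    (hxz : (x : Matrix (Fin n) (Fin n) F) * (x : Matrix (Fin n) (Fin n) F) = (l * l) • 1) :
    Conj Q x := by
  classical
  obtain ⟨k, hk, hχ⟩ := charpoly_sq_square h2 (x : Matrix (Fin n) (Fin n) F) l hxz
  obtain ⟨P, P', a, hPP', hP'P, ha, hQP⟩ := orth_basis h2 Q hQ (Equiv.refl (Fin n))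
  obtain ⟨ε, hε⟩ : ∃ ε : Fin n → F, ε = fun j : Fin n => if (j : ℕ) < k then l else -l :=
    ⟨_, rfl⟩
  have hεε : ∀ j, ε j * ε j = l * l := by
    intro j
    rw [hε]
    by_cases h : (j : ℕ) < k
    · simp only [if_pos h]
    · simp only [if_neg h]
      ring
  have hDD : (Matrix.diagonal ε) * (Matrix.diagonal ε) =
      (l * l) • (1 : Matrix (Fin n) (Fin n) F) := by
    rw [Matrix.diagonal_mul_diagonal]
    have : (fun i => ε i * ε i) = fun _ => l * l := funext hεε
    rw [this, Matrix.smul_one_eq_diagonal]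
  have hD : ∀ c : Fin n → F, ∑ j, a j * ((Matrix.diagonal ε) *ᵥ c) j ^ 2 =
      (l * l) * ∑ j, a j * c j ^ 2 := by
    intro c
    rw [Finset.mul_sum]
    apply Finset.sum_congr rfl
    intro j _
    rw [Matrix.mulVec_diagonal]
    have := hεε j
    linear_combination (a j * c j ^ 2) * this
  obtain ⟨hyy, hQy⟩ := model_props Q P P' a hPP' hP'P hQP (Matrix.diagonal ε) (l * l) hDD hD
  refine conj_of_model h2 Q x hx (l * l) (mul_ne_zero hl hl) hxz (P * Matrix.diagonal ε * P')
    hyy hQy ?_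
  rw [Matrix.mul_assoc, Matrix.charpoly_mul_comm, Matrix.mul_assoc, hP'P, Matrix.mul_one,
    Matrix.charpoly_diagonal, hχ]
  have e1 : ∏ j : Fin n, ((X : F[X]) - C (ε j)) =
      ∏ j : Fin n, (if (j : ℕ) < k then ((X : F[X]) - C l) else (X - C (-l))) := by
    apply Finset.prod_congr rfl
    intro j _
    have hj : ε j = if (j : ℕ) < k then l else -l := by rw [hε]
    rw [hj]
    by_cases h : (j : ℕ) < k
    · rw [if_pos h, if_pos h]
    · rw [if_neg h, if_neg h]
  rw [e1, Fin.prod_univ_eq_prod_range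
    (fun i => if i < k then ((X : F[X]) - C l) else (X - C (-l))) n,
    prod_ite_lt _ _ n k hk]

/-- [INV], non-square case. -/
theorem inv_nonsquare [Fintype F] (hF : Odd (Fintype.card F)) {n : ℕ} (Q : (Fin n → F) → F)
    (hQ : Cfsg.Geo.IsNondegenerateQuadraticForm Q) (x : GL (Fin n) F)
    (hx : x ∈ Cfsg.Geo.specialLinear (Fin n) F) (z : F) (hz : z ≠ 0)
    (hns : ∀ l : F, l * l ≠ z)
    (hxz : (x : Matrix (Fin n) (Fin n) F) * (x : Matrix (Fin n) (Fin n) F) = z • 1) :
    Conj Q x := by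
  classical
  have h2 : (2 : F) ≠ 0 := two_ne_zero_of_odd hF
  obtain ⟨m, hnm, hχ⟩ := charpoly_sq_nonsquare (x : Matrix (Fin n) (Fin n) F) z hxz hns
  subst hnm
  obtain ⟨P, P', a, hPP', hP'P, ha, hQP⟩ :=
    orth_basis h2 Q hQ (finProdFinEquiv : Fin 2 × Fin m ≃ Fin (2 * m))
  obtain ⟨δ, hδ⟩ : ∃ δ : Fin m → F, ∀ i, a (1, i) = a (0, i) * δ i ∧ δ i ≠ 0 := by
    refine ⟨fun i => a (1, i) / a (0, i), fun i => ⟨?_, div_ne_zero (ha _) (ha _)⟩⟩
    have := ha (0, i)
    field_simp
  have hex : ∀ i : Fin m, ∃ s t : F, s ^ 2 + δ i * t ^ 2 = z :=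
    fun i => exists_sq_add hF _ z (hδ i).2
  choose s t hst using hex
  obtain ⟨blk, hblk⟩ : ∃ blk : Fin m → Matrix (Fin 2) (Fin 2) F,
      blk = fun i => !![s i, t i * δ i; t i, - s i] := ⟨_, rfl⟩
  have hbb : ∀ i, blk i * blk i = z • (1 : Matrix (Fin 2) (Fin 2) F) := by
    intro i
    rw [hblk]
    have := hst i
    ext u w
    fin_cases u <;> fin_cases w <;>
      simp [Matrix.mul_apply, Fin.sum_univ_two] <;>
      first | linear_combination this | ring
  have hDD : Matrix.blockDiagonal blk * Matrix.blockDiagonal blk =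
      z • (1 : Matrix (Fin 2 × Fin m) (Fin 2 × Fin m) F) := by
    rw [← Matrix.blockDiagonal_mul]
    have : (fun i => blk i * blk i) = z • (1 : Fin m → Matrix (Fin 2) (Fin 2) F) := by
      funext i
      rw [hbb i]
      rfl
    rw [this, Matrix.blockDiagonal_smul, Matrix.blockDiagonal_one]
  have hmv : ∀ (c : Fin 2 × Fin m → F) (u : Fin 2) (i : Fin m),
      (Matrix.blockDiagonal blk *ᵥ c) (u, i) = blk i u 0 * c (0, i) + blk i u 1 * c (1, i) := by
    intro c u i
    simp only [Matrix.mulVec, dotProduct, Matrix.blockDiagonal_apply]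
    rw [Fintype.sum_prod_type, Fin.sum_univ_two]
    congr 1
    · rw [Finset.sum_eq_single i]
      · rw [if_pos rfl]
      · intro j _ hji
        rw [if_neg (Ne.symm hji), zero_mul]
      · intro h
        exact absurd (Finset.mem_univ i) h
    · rw [Finset.sum_eq_single i]
      · rw [if_pos rfl]
      · intro j _ hji
        rw [if_neg (Ne.symm hji), zero_mul]
      · intro h
        exact absurd (Finset.mem_univ i) h
  have hD : ∀ c : Fin 2 × Fin m → F, ∑ j, a j * ((Matrix.blockDiagonal blk) *ᵥ c) j ^ 2 =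
      z * ∑ j, a j * c j ^ 2 := by
    intro c
    rw [Fintype.sum_prod_type_right, Fintype.sum_prod_type_right, Finset.mul_sum]
    apply Finset.sum_congr rfl
    intro i _
    rw [Fin.sum_univ_two, Fin.sum_univ_two, hmv, hmv, hblk]
    have h1 := hst i
    simp only [Matrix.of_apply, Matrix.cons_val', Matrix.cons_val_zero, Matrix.cons_val_one,
      Matrix.cons_val_fin_one]
    rw [(hδ i).1]
    linear_combination (a (0, i) * c (0, i) ^ 2 + a (0, i) * δ i * c (1, i) ^ 2) * h1
  obtain ⟨hyy, hQy⟩ := model_props Q P P' a hPP' hP'P hQP (Matrix.blockDiagonal blk) z hDD hD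
  refine conj_of_model h2 Q x hx z hz hxz (P * Matrix.blockDiagonal blk * P') hyy hQy ?_
  obtain ⟨m', hm', hχ'⟩ := charpoly_sq_nonsquare (P * Matrix.blockDiagonal blk * P') z hyy hns
  have : m' = m := by omega
  rw [hχ', hχ, this]

/-- [INV] every involution of `PSL_n(q)`, `q` odd, is conjugate into the similarity group. -/
theorem pkgInv : PkgInv.{u} := by
  intro F _ _ n Q hodd hn hQ x hx
  classical
  obtain ⟨hxS, ⟨z, hz⟩, -⟩ := hx
  have h2 : (2 : F) ≠ 0 := two_ne_zero_of_odd hodd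
  have hxz : (x : Matrix (Fin n) (Fin n) F) * (x : Matrix (Fin n) (Fin n) F) = z • 1 := by
    rw [← hz, pow_two, Units.val_mul]
  have hdx : (x : Matrix (Fin n) (Fin n) F).det = 1 := by
    have h := congrArg Units.val (MonoidHom.mem_ker.mp hxS)
    rw [Matrix.GeneralLinearGroup.val_det_apply] at h
    exact h
  have hz0 : z ≠ 0 := by
    intro h0
    have h3 := congrArg Matrix.det hxz
    haveI : Nonempty (Fin n) := ⟨⟨0, by omega⟩⟩
    rw [Matrix.det_mul, hdx, h0, zero_smul, Matrix.det_zero] at h3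
    simp at h3
  by_cases hsq : ∃ l : F, l * l = z
  · obtain ⟨l, rfl⟩ := hsq
    have hl : l ≠ 0 := by
      intro h
      apply hz0
      rw [h, mul_zero]
    exact inv_square h2 Q hQ x hxS l hl hxz
  · push Not at hsq
    exact inv_nonsquare hodd Q hQ x hxS z hz0 hsq hxz

end Cfsg.Agent.Lib.Helper11.QSim
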