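import Mathlib
import Cfsg.Agent.Lib.Helper55.QSim.R35Defs

/-!
# QSim (S5981): [R35C] five fifth roots of unity with product `1` can be arranged as
`(κ β₁, κ β₁⁻¹, κ β₂, κ β₂⁻¹, κ)`
-/

set_option autoImplicit false

namespace Cfsg.Agent.Lib.Helper11.QSim

open Cfsg.Agent.Lib.Helper55.QSim

universe u

/-- The finite fact: five residues mod 5 with sum 0 contain a "centre" and a symmetric pair. -/
theorem r35c_fin : ∀ a0 a1 a2 a3 a4 : Fin 5,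
    (a0.val + a1.val + a2.val + a3.val + a4.val) % 5 = 0 →
    ∃ i0 i1 i2 : Fin 5, i0 ≠ i1 ∧ i0 ≠ i2 ∧ i1 ≠ i2 ∧
      ((![a0, a1, a2, a3, a4] i1).val + (![a0, a1, a2, a3, a4] i2).val) % 5 =
        (2 * (![a0, a1, a2, a3, a4] i0).val) % 5 := by
  decide +kernel

theorem r35c_perm : ∀ i0 i1 i2 : Fin 5, i0 ≠ i1 → i0 ≠ i2 → i1 ≠ i2 →
    ∃ σ : Equiv.Perm (Fin 5), σ 0 = i1 ∧ σ 1 = i2 ∧ σ 4 = i0 := by
  decide +kernel

/-- [R35C] -/
theorem pkgR35C : PkgR35C.{u} := by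
  intro F _ d hd hprod
  classical
  by_cases hall : ∀ i, d i = 1
  · refine ⟨1, ?_, ?_⟩ <;> simp [hall]
  · push Not at hall
    obtain ⟨j, hj⟩ := hall
    haveI : Fact (Nat.Prime 5) := ⟨by norm_num⟩
    have hord : orderOf (d j) = 5 := orderOf_eq_prime (hd j) hj
    have hζ : IsPrimitiveRoot (d j) 5 := by
      rw [← hord]
      exact IsPrimitiveRoot.orderOf (d j)
    have hpow : ∀ i, ∃ k < 5, (d j) ^ k = d i := fun i => hζ.eq_pow_of_pow_eq_one (hd i)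
    choose a ha hda using hpow
    have hsum : (a 0 + a 1 + a 2 + a 3 + a 4) % 5 = 0 := by
      have h1 : (d j) ^ (a 0 + a 1 + a 2 + a 3 + a 4) = 1 := by
        rw [pow_add, pow_add, pow_add, pow_add, hda, hda, hda, hda, hda, ← hprod,
          Fin.prod_univ_five]
      exact Nat.mod_eq_zero_of_dvd ((hζ.pow_eq_one_iff_dvd _).mp h1)
    obtain ⟨i0, i1, i2, h01, h02, h12, hmod⟩ :=
      r35c_fin ⟨a 0, ha 0⟩ ⟨a 1, ha 1⟩ ⟨a 2, ha 2⟩ ⟨a 3, ha 3⟩ ⟨a 4, ha 4⟩ hsum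
    have hval : ∀ i : Fin 5,
        (![(⟨a 0, ha 0⟩ : Fin 5), ⟨a 1, ha 1⟩, ⟨a 2, ha 2⟩, ⟨a 3, ha 3⟩, ⟨a 4, ha 4⟩] i).val
          = a i := by
      intro i
      fin_cases i <;> rfl
    rw [hval, hval, hval] at hmod
    have key : d i1 * d i2 = d i0 ^ 2 := by
      rw [← hda i1, ← hda i2, ← hda i0, ← pow_add, ← pow_mul, mul_comm (a i0) 2]
      rw [← pow_mod_orderOf (d j) (a i1 + a i2), ← pow_mod_orderOf (d j) (2 * a i0), hord, hmod]
    obtain ⟨σ, hσ0, hσ1, hσ4⟩ := r35c_perm i0 i1 i2 h01 h02 h12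
    have h1 : d (σ 0) * d (σ 1) = d (σ 4) ^ 2 := by
      rw [hσ0, hσ1, hσ4]
      exact key
    refine ⟨σ, h1, ?_⟩
    have hp : ∏ i, d (σ i) = 1 := by
      rw [Equiv.prod_comp σ d]
      exact hprod
    rw [Fin.prod_univ_five] at hp
    have h5 := hd (σ 4)
    linear_combination (-(d (σ 2) * d (σ 3) * d (σ 4) ^ 3)) * h1 + d (σ 4) ^ 2 * hp +
      (-(d (σ 2) * d (σ 3))) * h5

end Cfsg.Agent.Lib.Helper11.QSim
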